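import Cfsg.Agent.KnownA.D4Sing.Weyl
import Cfsg.Agent.Chev.TwistD4

/-!
# Exponents of the torus element of order `(q³ - 1)(q + 1)` of `³D₄(q)`
-/

set_option autoImplicit false

universe u

namespace Cfsg.Agent.KnownA.D4Sing

open Cfsg.Lie Cfsg.Agent.Chev

/-- exponent coefficients of `1, q, q², q³` at the roots -/
def vT : Fin 4 → List ℤ :=
  ![[-1, -1, -2, 0, -1, -1, 0, -1, 1, 0, -1, 1, -1, 1, 0, -1, 1, 0, 1, 1, 0, 2, 1, 1],
    [0, -1, -1, 1, 1, 0, -1, -1, 1, 1, -2, 0, 0, 2, -1, -1, 1, 1, 0, -1, -1, 1, 1, 0],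
    [0, -1, 1, -1, 1, 0, -1, 1, -1, 1, 0, -2, 2, 0, -1, 1, -1, 1, 0, -1, 1, -1, 1, 0],
    [1, 0, 1, -1, 0, -1, 1, 2, 0, 1, 1, -1, 1, -1, -1, 0, -2, -1, 1, 0, 1, -1, 0, -1]]

/-- the coefficient vectors of the torus parameters -/
def gT : Fin 4 → Fin 4 → ℤ := ![![1, 0, 0, 0], ![1, 0, 0, -1], ![1, 1, 0, -1], ![0, 0, 1, 0]]

/-- the torus parameters as exponents -/
def gam (q : ℤ) (k : ℕ) : ℤ :=
  if k = 0 then 1 else if k = 1 then 1 - q ^ 3 else if k = 2 then 1 + q - q ^ 3 else q ^ 2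

/-- the exponent at a root -/
def expo (q : ℤ) (s : ℕ) : ℤ :=
  (vT 0).getD s 0 + (vT 1).getD s 0 * q + (vT 2).getD s 0 * q ^ 2 + (vT 3).getD s 0 * q ^ 3

theorem expo_lin : ∀ s : Fin 24, ∀ i : Fin 4,
    (vT i).getD s 0 = ∑ k : Fin 4, gT k i * chevD4.cartan (k : ℕ) (s : ℕ) := by decide +kernel

theorem sum_gam (q : ℤ) {s : ℕ} (hs : s < 24) :
    ∑ k ∈ Finset.range 4, gam q k * chevD4.cartan k s = expo q s := by
  have h := expo_lin ⟨s, hs⟩
  have h0 := h 0; have h1 := h 1; have h2 := h 2; have h3 := h 3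
  simp only [Fin.sum_univ_four] at h0 h1 h2 h3
  have e : expo q s = (vT 0).getD s 0 + (vT 1).getD s 0 * q + (vT 2).getD s 0 * q ^ 2 + (vT 3).getD s 0 * q ^ 3 :=
    rfl
  rw [e, h0, h1, h2, h3]
  simp [gT, Finset.sum_range_succ, gam]
  ring

theorem small_sep : ∀ x : Fin 3, ∀ r s : Fin 24,
    let n : ℤ := (x : ℤ) + 2
    ((n ^ 3 - 1) * (n + 1) ∣ expo n r - expo n s →
      (chevD4.cartan 0 (r : ℕ) = chevD4.cartan 0 (s : ℕ) ∨ r.val = 18) → r = s) ∧
    ¬ (n ^ 3 - 1) * (n + 1) ∣ expo n r := by decide +kernel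

theorem vec_data : ∀ r s : Fin 24,
    (∀ i, |(vT i).getD r 0 - (vT i).getD s 0| ≤ 4) ∧ ((∀ i, (vT i).getD r 0 = (vT i).getD s 0) → r = s) ∧
    (∀ i, |(vT i).getD r 0| ≤ 4) ∧ ¬ (∀ i, (vT i).getD r 0 = 0) := by decide +kernel

theorem large_zero {q : ℤ} (hq : 5 ≤ q) {a b c d : ℤ} (ha : |a| ≤ 4) (hb : |b| ≤ 4) (hc : |c| ≤ 4) (hd : |d| ≤ 4)
    (h : (q ^ 3 - 1) * (q + 1) ∣ a + b * q + c * q ^ 2 + d * q ^ 3) : a = 0 ∧ b = 0 ∧ c = 0 ∧ d = 0 := by
  rw [abs_le] at ha hb hc hd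
  have hlt : |a + b * q + c * q ^ 2 + d * q ^ 3| < (q ^ 3 - 1) * (q + 1) := by
    rw [abs_lt]
    constructor <;> nlinarith [sq_nonneg q, mul_le_mul_of_nonneg_right hq (sq_nonneg q)]
  have h0 := Int.eq_zero_of_abs_lt_dvd h hlt
  have small : ∀ x : ℤ, -4 ≤ x → x ≤ 4 → q ∣ x → x = 0 := fun x h1 h2 hx =>
    Int.eq_zero_of_abs_lt_dvd hx (abs_lt.mpr ⟨by omega, by omega⟩)
  have hq0 : q ≠ 0 := by omega
  have a0 : a = 0 := small a ha.1 ha.2 ⟨-(b + c * q + d * q ^ 2), by linear_combination h0⟩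
  subst a0
  have h1 : b + c * q + d * q ^ 2 = 0 := by
    have : q * (b + c * q + d * q ^ 2) = 0 := by linear_combination h0
    exact (mul_eq_zero.mp this).resolve_left hq0
  have b0 : b = 0 := small b hb.1 hb.2 ⟨-(c + d * q), by linear_combination h1⟩
  subst b0
  have h2 : c + d * q = 0 := by
    have : q * (c + d * q) = 0 := by linear_combination h1
    exact (mul_eq_zero.mp this).resolve_left hq0
  have c0 : c = 0 := small c hc.1 hc.2 ⟨-d, by linear_combination h2⟩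
  subst c0
  exact ⟨rfl, rfl, rfl, (mul_eq_zero.mp (show d * q = 0 by linarith)).resolve_right hq0⟩

theorem expo_sep {q : ℤ} (hq : 2 ≤ q) (r s : Fin 24) :
    ((q ^ 3 - 1) * (q + 1) ∣ expo q r - expo q s →
      (chevD4.cartan 0 (r : ℕ) = chevD4.cartan 0 (s : ℕ) ∨ r.val = 18) → r = s) ∧
    ¬ (q ^ 3 - 1) * (q + 1) ∣ expo q r := by
  rcases (by omega : q = 2 ∨ q = 3 ∨ q = 4 ∨ 5 ≤ q) with rfl | rfl | rfl | h5
  · simpa using small_sep 0 r s
  · simpa using small_sep 1 r s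
  · simpa using small_sep 2 r s
  · obtain ⟨h1, e1, h2, e2⟩ := vec_data r s
    refine ⟨fun h _ => ?_, fun h => ?_⟩
    · have := large_zero h5 (h1 0) (h1 1) (h1 2) (h1 3) (by convert h using 1; simp [expo]; ring)
      exact e1 fun i => by fin_cases i <;> simp only [] <;>
        first | exact sub_eq_zero.mp this.1 | exact sub_eq_zero.mp this.2.1 |
          exact sub_eq_zero.mp this.2.2.1 | exact sub_eq_zero.mp this.2.2.2
    · have := large_zero h5 (h2 0) (h2 1) (h2 2) (h2 3) (by simpa [expo] using h)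
      exact e2 fun i => by fin_cases i <;> tauto

/-- the word of the reflection in the highest root -/
def hiWord : List ℕ := [1, 0, 2, 3, 1, 3, 2, 0, 1]

theorem hiWord_lt : ∀ a ∈ hiWord, a < chevD4.rank := by decide +kernel

theorem hiWord_data : act chevD4 hiWord 13 = 13 ∧ act chevD4 hiWord 12 = 12 ∧ act chevD4 hiWord 18 = 18 ∧
    act chevD4 hiWord 1 = 14 := by decide +kernel

theorem nuActs_high (C : Cert.{u} chevD4) {F : Type u} [Field F] : NuActs C F 23 hiWord := by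
  have e : chevD4.simple 1 = 14 ∧ chevD4.reflectRoot 3 14 = 15 ∧ chevD4.reflectRoot 2 15 = 17 ∧
      chevD4.reflectRoot 0 17 = 22 ∧ chevD4.reflectRoot 1 22 = 23 := by decide +kernel
  have hr : chevD4.rank = 4 := rfl
  have hn : chevD4.nroots = 24 := rfl
  have h14 : NuActs C F 14 [1] := e.1 ▸ nuActs_simple C (i := 1) (by omega)
  have h15 := nuActs_refl C (i := 3) (by omega) (by omega) (by simp [hr]) h14
  rw [e.2.1] at h15
  have h17 := nuActs_refl C (i := 2) (by omega) (by omega) (by simp [hr]) h15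
  rw [e.2.2.1] at h17
  have h22 := nuActs_refl C (i := 0) (by omega) (by omega) (by simp [hr]) h17
  rw [e.2.2.2.1] at h22
  have h23 := nuActs_refl C (i := 1) (by omega) (by omega) (by simp [hr]) h22
  rw [e.2.2.2.2] at h23
  exact h23

theorem pairInt_act (C : Cert.{u} chevD4) {r s : ℕ} (hr : r < chevD4.nroots) (hs : s < chevD4.nroots) :
    ∀ {L : List ℕ}, (∀ i ∈ L, i < chevD4.rank) →
      pairInt chevD4 (act chevD4 L r) (act chevD4 L s) = pairInt chevD4 r s := by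
  intro L
  induction L with
  | nil => intro _; rfl
  | cons a L ih =>
    intro hL
    have hL' : ∀ i ∈ L, i < chevD4.rank := fun i hi => hL i (List.mem_cons_of_mem _ hi)
    rw [act_cons, act_cons, C.pairInt_refl (hL a List.mem_cons_self) (C.act_lt hL' hr) (C.act_lt hL' hs), ih hL']

theorem torus_separated (C : Cert.{u} chevD4) {K : Type*} [Field K] {μ : K} {q : ℕ} (hq : 2 ≤ q)
    (hμ : IsPrimitiveRoot μ ((q ^ 3 - 1) * (q + 1))) :
    (∀ r < chevD4.nroots, μ ^ expo q r ≠ 1) ∧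
    ∀ L : List ℕ, (∀ i ∈ L, i < chevD4.rank) →
      (∀ r < chevD4.nroots, μ ^ expo q (act chevD4 L r) = μ ^ expo q r) →
      ∀ r < chevD4.nroots, act chevD4 L r = r := by
  have hcast : ((((q ^ 3 - 1) * (q + 1) : ℕ)) : ℤ) = ((q : ℤ) ^ 3 - 1) * ((q : ℤ) + 1) := by
    have : 1 ≤ q ^ 3 := Nat.one_le_pow _ _ (by omega)
    push_cast [this]; ring
  have h0 : μ ≠ 0 := hμ.ne_zero (by
    have : 2 ≤ q ^ 3 := le_trans hq (Nat.le_self_pow (by norm_num) q)
    exact Nat.mul_ne_zero (by omega) (by omega))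
  have hdvd : ∀ x y : ℤ, μ ^ x = μ ^ y → ((q : ℤ) ^ 3 - 1) * ((q : ℤ) + 1) ∣ x - y := fun x y e => by
    rw [← hcast, ← hμ.zpow_eq_one_iff_dvd, zpow_sub₀ h0, e, div_self (zpow_ne_zero _ h0)]
  constructor
  · intro r hr h
    rw [hμ.zpow_eq_one_iff_dvd, hcast] at h
    exact (expo_sep (by exact_mod_cast hq) ⟨r, hr⟩ ⟨r, hr⟩).2 h
  · intro L hL h r hr
    have h18 : 18 < chevD4.nroots := by decide +kernel
    have hfix : act chevD4 L 18 = 18 := by
      have := (expo_sep (q := q) (by exact_mod_cast hq) ⟨18, h18⟩ ⟨_, C.act_lt hL h18⟩).1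
        (hdvd _ _ (h 18 h18).symm) (Or.inr rfl)
      exact (congrArg Fin.val this).symm
    have hc : chevD4.cartan 0 (act chevD4 L r) = chevD4.cartan 0 r := by
      have := pairInt_act C h18 hr hL
      rw [hfix] at this
      have hs : chevD4.simple 0 = 18 := by decide +kernel
      rwa [← hs, C.pairInt_simple (by decide), C.pairInt_simple (by decide)] at this
    exact congrArg Fin.val ((expo_sep (q := q) (by exact_mod_cast hq) ⟨_, C.act_lt hL hr⟩ ⟨r, hr⟩).1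
      (hdvd _ _ (h r hr)) (Or.inl hc))

end Cfsg.Agent.KnownA.D4Sing
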