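import Cfsg.Agent.KnownA.D4Sing.Setup

/-!
# A self-centralizing cyclic subgroup of order `(q³ - 1)(q + 1)` in `³D₄(q)`
-/

set_option autoImplicit false

universe u

namespace Cfsg.Agent.KnownA.D4Sing

open Cfsg.Lie Cfsg.Agent.Chev
open scoped Matrix MatrixGroups

theorem torus_char {L : Type} [Field L] (C : Cert.{0} chevD4) (c : ℕ → L) (hc : ∀ k < chevD4.rank, c k ≠ 0)
    {s : ℕ} (hs : s < chevD4.nroots) (t : L) :
    C.torusElt c * C.xu s t * (C.torusElt c)⁻¹ =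
      C.xu s ((∏ k ∈ Finset.range chevD4.rank, cartChar chevD4 k (c k) s) * t) := by
  obtain ⟨χ, hχ, -, e⟩ := C.diagonal_char (C.mem_diagonal_iff.mpr ⟨c, hc, rfl⟩)
  have hval : χ s = ∏ k ∈ Finset.range chevD4.rank, cartChar chevD4 k (c k) s := by
    have h := e
    rw [C.coe_torusElt hc] at h
    have := congrFun (congrFun h (Sum.inr ⟨s, hs⟩)) (Sum.inr ⟨s, hs⟩)
    simpa [dMat] using this.symm
  have : C.torusElt c * C.xu s t = C.xu s (χ s * t) * C.torusElt c := Units.ext (by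
    rw [Units.val_mul (C.torusElt c), Units.val_mul (C.xu s (χ s * t)), C.coe_xu, C.coe_xu, e, C.dMat_conj hχ hs t])
  rw [this, mul_inv_cancel_right, hval]

theorem zpow_char {L : Type} [Field L] {μ : L} (hμ : μ ≠ 0) (q : ℤ) {s : ℕ} (hs : s < 24) :
    (∏ k ∈ Finset.range chevD4.rank, cartChar chevD4 k (μ ^ gam q k) s) = μ ^ expo q s := by
  rw [← sum_gam q hs, show chevD4.rank = 4 from rfl]
  simp only [Finset.prod_range_succ, Finset.prod_range_zero, Finset.sum_range_succ, Finset.sum_range_zero,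
    cartChar, ← zpow_mul, one_mul, zero_add, zpow_add₀ hμ]

theorem cartan_neg_sum : ∀ k : Fin 4, chevD4.cartan (k : ℕ) 1 =
    -(chevD4.cartan (k : ℕ) 18 + chevD4.cartan (k : ℕ) 14 + chevD4.cartan (k : ℕ) 13 + chevD4.cartan (k : ℕ) 12) := by
  decide +kernel

theorem char_one {L : Type} [Field L] (c : ℕ → L) (hc : ∀ k < chevD4.rank, c k ≠ 0) :
    (∏ k ∈ Finset.range chevD4.rank, cartChar chevD4 k (c k) 1) *
      ((∏ k ∈ Finset.range chevD4.rank, cartChar chevD4 k (c k) 18) *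
        (∏ k ∈ Finset.range chevD4.rank, cartChar chevD4 k (c k) 14) *
        (∏ k ∈ Finset.range chevD4.rank, cartChar chevD4 k (c k) 13) *
        (∏ k ∈ Finset.range chevD4.rank, cartChar chevD4 k (c k) 12)) = 1 := by
  simp only [← Finset.prod_mul_distrib]
  refine Finset.prod_eq_one fun k hk => ?_
  have hk' := Finset.mem_range.mp hk
  have h := cartan_neg_sum ⟨k, hk'⟩
  have h0 := hc k hk'
  simp only [cartChar]
  rw [← zpow_add₀ h0, ← zpow_add₀ h0, ← zpow_add₀ h0, ← zpow_add₀ h0, h]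
  refine Eq.trans (congrArg (fun x : ℤ => c k ^ x) ?_) (zpow_zero _)
  ring

theorem card_pairs {L : Type} [Field L] [Finite L] {N M : ℕ} (hN : 0 < N) (hM : 0 < M) (f : L → L)
    {α : Type*} (g : α → L × L) (hg : Function.Injective g)
    (h1 : ∀ x, (g x).1 ^ N = 1) (h2 : ∀ x, (g x).2 ^ M = f (g x).1) : Nat.card α ≤ N * M := by
  classical
  let S : Finset (Σ _ : L, L) :=
    (Polynomial.nthRoots N (1 : L)).toFinset.sigma fun a => (Polynomial.nthRoots M (f a)).toFinset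
  have hmem : ∀ x, (⟨(g x).1, (g x).2⟩ : Σ _ : L, L) ∈ S := fun x => by
    simp [S, Polynomial.mem_nthRoots hN, Polynomial.mem_nthRoots hM, h1, h2]
  have hcard : S.card ≤ N * M := by
    rw [Finset.card_sigma]
    refine le_trans (Finset.sum_le_card_nsmul _ _ M fun a _ => ?_) ?_
    · exact le_trans (Multiset.toFinset_card_le _) (Polynomial.card_nthRoots _ _)
    · rw [smul_eq_mul]
      exact Nat.mul_le_mul_right _ (le_trans (Multiset.toFinset_card_le _) (Polynomial.card_nthRoots _ _))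
  let e : α → {z // z ∈ S} := fun x => ⟨_, hmem x⟩
  have he : Function.Injective e := fun x y h => by
    have := congrArg Subtype.val h
    simp only [e, Sigma.mk.injEq, heq_eq_eq] at this
    exact hg (Prod.ext this.1 this.2)
  calc Nat.card α ≤ Nat.card {z // z ∈ S} := Nat.card_le_card_of_injective e he
    _ = S.card := Nat.card_eq_finsetCard S
    _ ≤ _ := hcard

variable {L : Type} [Field L]

/-- The certificate of `D₄` over a field in `Type`. -/
noncomputable abbrev cL : Cert.{0} chevD4 := AllOK.cert.{0} allOKD4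

/-- torus parameters -/
noncomputable def tpar (μ : L) (q : ℕ) (k : ℕ) : L := μ ^ gam q k

/-- the torus element -/
noncomputable def tEl (μ : L) (q : ℕ) : GL chevD4.Idx L := cL.torusElt (tpar μ q)

theorem tEl_conj {μ : L} (hμ : μ ≠ 0) (q : ℕ) {r : ℕ} (hr : r < chevD4.nroots) (z : L) :
    tEl μ q * cL.xu r z * (tEl μ q)⁻¹ = cL.xu r (μ ^ expo q r * z) := by
  rw [tEl, torus_char cL (tpar μ q) (fun k _ => zpow_ne_zero _ hμ) hr z]
  unfold tpar
  rw [zpow_char hμ q hr]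

theorem tEl_mem {μ : L} (hμ : μ ≠ 0) (q : ℕ) : tEl μ q ∈ chevD4.diagonalSubgroup L :=
  cL.mem_diagonal_iff.mpr ⟨tpar μ q, fun _ _ => zpow_ne_zero _ hμ, rfl⟩

theorem high_root : 23 < chevD4.nroots ∧ 0 < chevD4.nroots ∧ chevD4.neg 23 = 0 := by decide +kernel

theorem conj_formula {μ u δ e : L} (hμ : μ ≠ 0) {q : ℕ} {B : L} (hB : B = μ ^ (1 - (q : ℤ) ^ 3)) (hB1 : 1 - B ≠ 0)
    (hδ : δ ≠ 0) (he : e = δ⁻¹ / (1 - B)) {φ : Matrix.SpecialLinearGroup (Fin 2) L →* GL chevD4.Idx L}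
    (hU : ∀ t, φ (sl2U t) = cL.xu 23 t) (hLo : ∀ t, φ (sl2L t) = cL.xu (chevD4.neg 23) t) :
    cL.xu 23 (u - e) * (cL.hu 23 e * tEl μ q) * cL.nu 23 1 * cL.xu 23 (-(B * e) - u) =
      φ (sl2U u * sl2W⁻¹ * sl2U δ) * tEl μ q * (φ (sl2U u * sl2W⁻¹ * sl2U δ))⁻¹ := by
  have hB0 : B ≠ 0 := hB ▸ zpow_ne_zero _ hμ
  have hx : ∀ z, tEl μ q * cL.xu 23 z * (tEl μ q)⁻¹ = cL.xu 23 (B * z) := fun z => by
    rw [tEl_conj hμ q high_root.1 z, hB]
    congr 3
    simp [expo, vT]; ring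
  have hy : ∀ z, tEl μ q * cL.xu 0 z * (tEl μ q)⁻¹ = cL.xu 0 (B⁻¹ * z) := fun z => by
    rw [tEl_conj hμ q high_root.2.1 z, hB, ← zpow_neg]
    congr 3
    simp [expo, vT]; ring
  generalize tEl μ q = t at hx hy
  set D : L := δ * (1 - B) with hD
  have hD0 : D ≠ 0 := mul_ne_zero hδ hB1
  have hDe : D⁻¹ = e := by rw [hD, he, mul_inv, div_eq_mul_inv]
  have hhu : cL.hu 23 e = φ (sl2U e * sl2L (-D) * sl2U e * (sl2U (-1) * sl2L 1 * sl2U (-1))) := by
    have e1 := sl2_nu cL φ hU hLo e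
    have e2 := sl2_nu cL φ hU hLo (-1)
    rw [show -e⁻¹ = -D by rw [← hDe, inv_inv]] at e1
    rw [show -(-1 : L)⁻¹ = 1 by rw [inv_neg, inv_one, neg_neg]] at e2
    rw [cL.hu_eq, e1, e2, ← map_mul]
  have hW2 : φ sl2W * cL.xu 23 (-(B * e) - u) = cL.xu 0 (B * e) * φ (sl2W * sl2U (-u)) := by
    rw [← hU, ← map_mul, ← high_root.2.2, ← hLo, ← map_mul,
      show (sl2L (B * e) : Matrix.SpecialLinearGroup (Fin 2) L) = sl2W * sl2U (-(B * e)) * sl2W⁻¹ by
        rw [sl2_W_conj, neg_neg]]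
    congr 1
    rw [show (sl2W * sl2U (-(B * e)) * sl2W⁻¹ * (sl2W * sl2U (-u)) : Matrix.SpecialLinearGroup (Fin 2) L) =
      sl2W * (sl2U (-(B * e)) * sl2U (-u)) by group]
    congr 1
    apply Subtype.ext
    ext i j
    fin_cases i <;> fin_cases j <;> simp [Matrix.mul_apply, Fin.sum_univ_two] <;> ring
  have ht0 : t * cL.xu 0 (B * e) = φ (sl2L e) * t := by
    have h := hy (B * e)
    rw [← mul_assoc B⁻¹, inv_mul_cancel₀ hB0, one_mul] at h
    rw [hLo, high_root.2.2, ← h]; group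
  have hmat : sl2U (u - e) * (sl2U e * sl2L (-D) * sl2U e * (sl2U (-1) * sl2L 1 * sl2U (-1))) * sl2L e =
      (sl2U u * sl2W⁻¹ * sl2U D : Matrix.SpecialLinearGroup (Fin 2) L) := by
    have hL0 : (sl2L (-e) * sl2L e : Matrix.SpecialLinearGroup (Fin 2) L) = 1 := by
      apply Subtype.ext
      ext i j
      fin_cases i <;> fin_cases j <;> simp [Matrix.mul_apply, Fin.sum_univ_two]
    have := sl2_conj_identity u D hD0
    rw [hDe] at this
    rw [← mul_assoc (sl2U (u - e)), ← this, mul_assoc, hL0, mul_one]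
  have hUinv : ∀ z : L, (sl2U z : Matrix.SpecialLinearGroup (Fin 2) L)⁻¹ = sl2U (-z) := fun z => by
    apply inv_eq_of_mul_eq_one_right
    apply Subtype.ext
    ext i j
    fin_cases i <;> fin_cases j <;> simp [Matrix.mul_apply, Fin.sum_univ_two]
  have hkey : φ (sl2U u * sl2W⁻¹ * sl2U D) =
      φ (sl2U u * sl2W⁻¹ * sl2U δ) * cL.xu 23 (B * -δ) := by
    rw [← hU, ← map_mul, mul_assoc _ (sl2U δ)]
    congr 2
    apply Subtype.ext
    ext i j
    fin_cases i <;> fin_cases j <;> simp [Matrix.mul_apply, Fin.sum_univ_two, hD] <;> ring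
  rw [hhu, ← nu_one_eq cL φ hU hLo, ← hU (u - e)]
  calc φ (sl2U (u - e)) * (φ (sl2U e * sl2L (-D) * sl2U e * (sl2U (-1) * sl2L 1 * sl2U (-1))) * t) * φ sl2W *
        cL.xu 23 (-(B * e) - u)
      = φ (sl2U (u - e)) * φ (sl2U e * sl2L (-D) * sl2U e * (sl2U (-1) * sl2L 1 * sl2U (-1))) *
          (t * (φ sl2W * cL.xu 23 (-(B * e) - u))) := by group
    _ = φ (sl2U (u - e)) * φ (sl2U e * sl2L (-D) * sl2U e * (sl2U (-1) * sl2L 1 * sl2U (-1))) *
          ((t * cL.xu 0 (B * e)) * φ (sl2W * sl2U (-u))) := by rw [hW2]; group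
    _ = φ (sl2U (u - e) * (sl2U e * sl2L (-D) * sl2U e * (sl2U (-1) * sl2L 1 * sl2U (-1))) * sl2L e) *
          (t * φ (sl2W * sl2U (-u))) := by
          rw [ht0]; simp only [map_mul, mul_assoc]
    _ = φ (sl2U u * sl2W⁻¹ * sl2U δ) * t * (cL.xu 23 (-δ) * φ (sl2W * sl2U (-u))) := by
          rw [hmat, hkey, ← hx]; simp only [mul_assoc, inv_mul_cancel_left]
    _ = _ := by
          congr 1
          rw [← hU, ← map_mul, ← map_inv]
          congr 1
          rw [mul_inv_rev, mul_inv_rev, inv_inv, hUinv, hUinv]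

theorem orderOf_tEl {μ : L} {q : ℕ} (hq : 2 ≤ q) (hμ : IsPrimitiveRoot μ ((q ^ 3 - 1) * (q + 1))) :
    orderOf (tEl μ q) = (q ^ 3 - 1) * (q + 1) := by
  set m := (q ^ 3 - 1) * (q + 1) with hm
  have hmpos : 0 < m := by
    have : 2 ≤ q ^ 3 := le_trans hq (Nat.le_self_pow (by norm_num) q)
    exact Nat.mul_pos (by omega) (by omega)
  have hμ0 : μ ≠ 0 := hμ.ne_zero hmpos.ne'
  let C : Cert.{0} chevD4 := cL
  let tc : ℕ → L := tpar μ q
  have htc : ∀ k < chevD4.rank, tc k ≠ 0 := fun k _ => zpow_ne_zero _ hμ0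
  have ht : tEl μ q = C.torusElt tc := rfl
  refine (orderOf_eq_iff hmpos).mpr ⟨?_, ?_⟩
  · have hone : ∀ k < chevD4.rank, tc k ^ m = 1 := fun k _ => by
      show (μ ^ gam (q : ℤ) k) ^ m = 1
      rw [← zpow_natCast, ← zpow_mul, mul_comm, zpow_mul, zpow_natCast, hμ.pow_eq_one, one_zpow]
    apply Units.ext
    rw [Units.val_pow_eq_pow_val, ht, C.coe_torusElt htc, dMat, Matrix.diagonal_pow, Units.val_one,
      ← Matrix.diagonal_one]
    congr 1
    funext x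
    rcases x with a | s
    · simp
    · simp only [Pi.pow_apply, Sum.elim_inr, ← Finset.prod_pow]
      refine Finset.prod_eq_one fun k hk => ?_
      simp only [cartChar]
      rw [← zpow_natCast, ← zpow_mul, mul_comm, zpow_mul, zpow_natCast, hone k (Finset.mem_range.mp hk), one_zpow]
  · intro j hj hj0 h
    have h' := congrArg (fun a : GL chevD4.Idx L => (a : Matrix chevD4.Idx chevD4.Idx L)) h
    simp only [Units.val_pow_eq_pow_val, Units.val_one] at h'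
    rw [ht, C.coe_torusElt htc, dMat, Matrix.diagonal_pow] at h'
    have hd : ∀ s, s < 24 → ((m : ℤ)) ∣ expo q s * j := by
      intro s hs
      have := congrFun (congrFun h' (Sum.inr ⟨s, hs⟩)) (Sum.inr ⟨s, hs⟩)
      simp only [Matrix.diagonal_apply_eq, Pi.pow_apply, Sum.elim_inr, Matrix.one_apply_eq] at this
      simp only [tc, tpar] at this
      rw [zpow_char hμ0 q hs, ← zpow_natCast, ← zpow_mul, hμ.zpow_eq_one_iff_dvd] at this
      exact this
    have hx : (Nat.gcd (q ^ 3 + 1) (q ^ 3 + q ^ 2 + q)) = 1 := by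
      have hA : Nat.Coprime (q ^ 3 + 1) q := by
        rw [show q ^ 3 + 1 = 1 + q ^ 2 * q by ring, Nat.coprime_add_mul_right_left]; exact Nat.coprime_one_left q
      have hC : Nat.Coprime (q ^ 3 + 1) (q ^ 2 + q + 1) := by
        rw [Nat.coprime_iff_gcd_eq_one]
        refine Nat.eq_one_of_dvd_coprimes (show Nat.Coprime 2 (q ^ 2 + q + 1) from ?_) ?_ (Nat.gcd_dvd_right _ _)
        · rw [Nat.coprime_two_left, Nat.odd_add, show q ^ 2 + q = q * (q + 1) by ring]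
          simp [Nat.even_mul_succ_self]
        · have d1 := Nat.gcd_dvd_left (q ^ 3 + 1) (q ^ 2 + q + 1)
          have d2 := Nat.gcd_dvd_right (q ^ 3 + 1) (q ^ 2 + q + 1)
          generalize Nat.gcd (q ^ 3 + 1) (q ^ 2 + q + 1) = dd at d1 d2
          have z1 : (dd : ℤ) ∣ (q : ℤ) ^ 3 + 1 := by exact_mod_cast d1
          have z2 : (dd : ℤ) ∣ (q : ℤ) ^ 2 + q + 1 := by exact_mod_cast d2
          have := dvd_sub z1 (dvd_mul_of_dvd_left z2 ((q : ℤ) - 1))
          rw [show (q : ℤ) ^ 3 + 1 - ((q : ℤ) ^ 2 + q + 1) * ((q : ℤ) - 1) = ((2 : ℕ) : ℤ) by push_cast; ring] at this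
          exact_mod_cast this
      rw [show q ^ 3 + q ^ 2 + q = q * (q ^ 2 + q + 1) by ring]
      exact Nat.Coprime.mul_right hA hC
    have d18 := hd 18 (by norm_num)
    have d14 := hd 14 (by norm_num)
    rw [show expo (q : ℤ) 18 = ((q ^ 3 + 1 : ℕ) : ℤ) by simp [expo, vT]; ring, ← Nat.cast_mul,
      Int.natCast_dvd_natCast] at d18
    rw [show expo (q : ℤ) 14 = -((q ^ 3 + q ^ 2 + q : ℕ) : ℤ) by simp [expo, vT]; ring, neg_mul, dvd_neg,
      ← Nat.cast_mul, Int.natCast_dvd_natCast] at d14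
    have := Nat.dvd_gcd d18 d14
    rw [Nat.gcd_mul_right, hx, one_mul] at this
    exact absurd (Nat.le_of_dvd hj0 this) (by omega)

/-- The scalars used in the construction. -/
theorem exists_scalars [Fintype L] {q : ℕ} (hq2 : 2 ≤ q) (hL : Fintype.card L = q ^ 6) (f : L →+* L)
    (hfq : ∀ x, f x = x ^ q) :
    ∃ (μ u δ e B : L), IsPrimitiveRoot μ ((q ^ 3 - 1) * (q + 1)) ∧ μ ≠ 0 ∧ B = μ ^ (1 - (q : ℤ) ^ 3) ∧
      1 - B ≠ 0 ∧ δ * (u - f u) = 1 ∧ δ ≠ 0 ∧ f δ = -δ ∧ e = δ⁻¹ / (1 - B) ∧ e ≠ 0 ∧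
      f (u - e) = u - e ∧ f (-(B * e) - u) = -(B * e) - u ∧
      f (f (f (μ * e))) = μ * e ∧ f (B * e ^ 2) = B * e ^ 2 ∧
      f (μ * e) = μ ^ gam q 2 * e ∧ f (f (μ * e)) = μ ^ gam q 3 * e := by
  classical
  have h1q : 1 ≤ q ^ 3 := Nat.one_le_pow _ _ (by omega)
  set m := (q ^ 3 - 1) * (q + 1) with hm
  have hq6 : (q ^ 2 - q + 1) * m = q ^ 6 - 1 ∧ (q ^ 4 + q ^ 2 + 1) * (q ^ 2 - 1) = q ^ 6 - 1 := by
    have h2 : q ≤ q ^ 2 := Nat.le_self_pow (by norm_num) q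
    have h6 : 1 ≤ q ^ 6 := Nat.one_le_pow _ _ (by omega)
    have h21 : 1 ≤ q ^ 2 := Nat.one_le_pow _ _ (by omega)
    rw [hm]
    zify [h2, h6, h21, h1q]
    constructor <;> ring
  obtain ⟨w, hw⟩ := IsCyclic.exists_generator (α := Lˣ)
  have hwo : orderOf w = q ^ 6 - 1 := by
    rw [orderOf_eq_card_of_forall_mem_zpowers hw, Nat.card_units, Nat.card_eq_fintype_card, hL]
  have hprim : IsPrimitiveRoot (w : L) (q ^ 6 - 1) :=
    (hwo ▸ IsPrimitiveRoot.orderOf w).map_of_injective (f := Units.coeHom L) Units.val_injective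
  have hpos : 0 < q ^ 6 - 1 := by
    have : 2 ≤ q ^ 6 := le_trans hq2 (Nat.le_self_pow (by norm_num) q)
    omega
  set μ : L := (w : L) ^ (q ^ 2 - q + 1) with hμdef
  have hμ : IsPrimitiveRoot μ m := hprim.pow hpos hq6.1.symm
  set u : L := (w : L) ^ (q ^ 4 + q ^ 2 + 1) with hudef
  have hu : IsPrimitiveRoot u (q ^ 2 - 1) := hprim.pow hpos hq6.2.symm
  have hμ0 : μ ≠ 0 := pow_ne_zero _ w.ne_zero
  have hu2 : f (f u) = u := by
    have h21 : 1 ≤ q ^ 2 := Nat.one_le_pow _ _ (by omega)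
    rw [hfq, hfq, ← pow_mul, show q * q = (q ^ 2 - 1) + 1 by rw [Nat.sub_add_cancel h21]; ring, pow_succ,
      hu.pow_eq_one, one_mul]
  have hune : u - f u ≠ 0 := by
    intro h
    have h' : u ^ q = u := by rw [← hfq]; exact (sub_eq_zero.mp h).symm
    have hu0 : u ≠ 0 := pow_ne_zero _ w.ne_zero
    have : u ^ (q - 1) = 1 := by
      rw [pow_sub₀ _ hu0 (by omega), h', pow_one, mul_inv_cancel₀ hu0]
    have hd := hu.dvd_of_pow_eq_one _ this
    have h3 := Nat.le_of_dvd (by omega) hd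
    have : q + q ≤ q ^ 2 := by nlinarith
    omega
  set δ : L := (u - f u)⁻¹ with hδ
  have hfδ : f δ = -δ := by
    rw [hδ, map_inv₀, map_sub, hu2, ← inv_neg, neg_sub]
  set B : L := μ ^ (1 - (q : ℤ) ^ 3) with hB
  have hB0 : B ≠ 0 := zpow_ne_zero _ hμ0
  have hBq : f B = B⁻¹ := by
    apply eq_inv_of_mul_eq_one_left
    rw [hfq, ← pow_succ, hB, ← zpow_natCast, ← zpow_mul, hμ.zpow_eq_one_iff_dvd]
    exact ⟨-1, by rw [hm]; push_cast [h1q]; ring⟩
  have h1B : 1 - B ≠ 0 := by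
    rw [sub_ne_zero]
    intro h
    have h := h.symm
    rw [hB, hμ.zpow_eq_one_iff_dvd, hm] at h
    push_cast [h1q] at h
    have h' : ((q : ℤ) ^ 3 - 1) * ((q : ℤ) + 1) ∣ (q : ℤ) ^ 3 - 1 := by
      rw [← dvd_neg, neg_sub]; exact h
    have hq8 : (8 : ℤ) ≤ (q : ℤ) ^ 3 := by exact_mod_cast Nat.pow_le_pow_left hq2 3
    have := Int.le_of_dvd (by linarith) h'
    nlinarith
  set e : L := δ⁻¹ / (1 - B) with he
  have hed : e * (1 - B) = u - f u := by rw [he, div_mul_cancel₀ _ h1B, hδ, inv_inv]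
  have he0 : e ≠ 0 := fun h => hune (by rw [← hed, h, zero_mul])
  have hfe : f e = e * B := by
    have h := congrArg f hed
    rw [map_mul, map_sub, map_sub, map_one, hBq, hu2] at h
    apply mul_right_cancel₀ h1B
    have hBB : B * B⁻¹ = 1 := mul_inv_cancel₀ hB0
    linear_combination (-B) * h + (-f e) * hBB + (-B) * hed
  have hfee : f (f e) = e := by rw [hfe, map_mul, hfe, hBq, mul_assoc, mul_inv_cancel₀ hB0, mul_one]
  have hfμ : f μ = μ ^ q := hfq μ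
  have hfμ3 : f (f (f μ)) = μ * B⁻¹ := by
    rw [hfq, hfq, hfq, ← pow_mul, ← pow_mul, hB, ← zpow_neg, ← zpow_natCast]
    conv_rhs => arg 1; rw [← zpow_one μ]
    rw [← zpow_add₀ hμ0]
    congr 1
    push_cast; ring
  refine ⟨μ, u, δ, e, B, hμ, hμ0, rfl, h1B, inv_mul_cancel₀ hune, inv_ne_zero hune, hfδ, rfl, he0, ?_, ?_, ?_, ?_,
    ?_, ?_⟩
  · rw [map_sub, hfe]; linear_combination hed
  · rw [map_sub, map_neg, map_mul, hfe, hBq]
    linear_combination (-1 : L) * hed - e * (inv_mul_cancel₀ hB0)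
  · rw [map_mul, map_mul, map_mul, hfμ3, hfee, hfe]
    linear_combination (μ * e) * (inv_mul_cancel₀ hB0)
  · rw [map_mul, map_pow, hBq, hfe]
    linear_combination (e ^ 2 * B) * (inv_mul_cancel₀ hB0)
  · rw [map_mul, hfe, hfq, hB, show gam (q : ℤ) 2 = (q : ℤ) + (1 - (q : ℤ) ^ 3) by simp [gam]; ring,
      zpow_add₀ hμ0, zpow_natCast]
    ring
  · rw [map_mul, map_mul, hfee, hfq, hfq, ← pow_mul, show gam (q : ℤ) 3 = ((q * q : ℕ) : ℤ) by
      simp [gam]; ring, zpow_natCast]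

theorem hu_mul_tEl {μ e : L} (hμ : μ ≠ 0) (he : e ≠ 0) (q : ℕ) {P : ℕ → L} (hP : ∀ k < chevD4.rank, P k ≠ 0)
    (h : ∀ k < 4, P k = e ^ corootC chevD4 23 k * μ ^ gam q k) :
    cL.torusElt P = cL.hu 23 e * tEl μ q := by
  apply Units.ext
  rw [Units.val_mul, cL.coe_hu, cL.hMat_eq_prod high_root.1 he, tEl,
    cL.coe_torusElt (c := tpar μ q) (fun k _ => zpow_ne_zero _ hμ), cL.coe_torusElt hP, dMat_mul]
  refine dMat_congr fun s _ => ?_
  rw [Pi.mul_apply, ← Finset.prod_mul_distrib]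
  refine Finset.prod_congr rfl fun k hk => ?_
  simp only [cartChar, ← mul_zpow, tpar]
  rw [h k (Finset.mem_range.mp hk)]

variable {K : Type u} [Field K] (ι : K →+* L) (f : L →+* L) (τ : K →+* K) (hτ : ∀ x, (τ)^[3] x = x)

/-- the certificate of `D₄` over `K` -/
noncomputable abbrev cK : Cert.{u} chevD4 := AllOK.cert.{u} allOKD4

theorem fixed_xu {a : K} (ha : τ a = a) : cK.xu 23 a ∈ chevD4.group K ⊓ (tD4 τ hτ).fixed := by
  refine ⟨cK.xu_mem_group _ _, Twist.mem_fixed _ |>.mpr ?_⟩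
  rw [(tD4 τ hτ).sigma_xu high_root.1]
  show cK.xu (gD4a.rhoF 23) (((gD4a.epsF 23 : ℤ) : K) * τ a) = _
  rw [show gD4a.rhoF 23 = 23 by decide +kernel, show gD4a.epsF 23 = 1 by decide +kernel, Int.cast_one, one_mul, ha]

theorem fixed_nu : cK.nu 23 (1 : K) ∈ chevD4.group K ⊓ (tD4 τ hτ).fixed := by
  refine ⟨cK.nu_mem_group _ _, Twist.mem_fixed _ |>.mpr ?_⟩
  rw [(tD4 τ hτ).sigma_nu high_root.1]
  show cK.nu (gD4a.rhoF 23) (((gD4a.epsF 23 : ℤ) : K) * τ 1) = _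
  rw [show gD4a.rhoF 23 = 23 by decide +kernel, show gD4a.epsF 23 = 1 by decide +kernel, Int.cast_one, one_mul,
    map_one]

theorem fixed_torus {pc : ℕ → K} (hpc : ∀ k < chevD4.rank, pc k ≠ 0) (h0 : τ (pc 0) = pc 2) (h1 : τ (pc 1) = pc 1)
    (h2 : τ (pc 2) = pc 3) (h3 : τ (pc 3) = pc 0) : cK.torusElt pc ∈ chevD4.group K ⊓ (tD4 τ hτ).fixed := by
  let c : Fin chevD4.rank → Kˣ := fun k => Units.mk0 (pc k) (hpc k k.isLt)
  have hc : cK.torusHom c = cK.torusElt pc := by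
    apply Units.ext
    show (cK.torusElt (torusArg c) : Matrix chevD4.Idx chevD4.Idx K) = _
    rw [cK.coe_torusElt (fun k _ => cK.torusArg_ne' _ k), cK.coe_torusElt hpc]
    refine dMat_congr fun s _ => Finset.prod_congr rfl fun k hk => ?_
    simp [torusArg, dif_pos (Finset.mem_range.mp hk), c]
  have hsh : (tD4 τ hτ).shift c = c := by
    funext j
    obtain ⟨a, rfl⟩ := (tD4 τ hτ).nodeEquiv.surjective j
    show (tD4 τ hτ).shift c ((tD4 τ hτ).nodeFin a) = c ((tD4 τ hτ).nodeFin a)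
    rw [(tD4 τ hτ).shift_node]
    apply Units.ext
    show τ (pc a) = pc (gD4a.nodeF a)
    have hn : gD4a.nodeF 0 = 2 ∧ gD4a.nodeF 1 = 1 ∧ gD4a.nodeF 2 = 3 ∧ gD4a.nodeF 3 = 0 := by decide +kernel
    obtain ⟨a, ha⟩ := a
    have ha' : a < 4 := ha
    interval_cases a <;> simp [hn.1, hn.2.1, hn.2.2.1, hn.2.2.2, h0, h1, h2, h3]
  rw [← hc]
  exact ⟨cK.diagonal_le_group (cK.torusHom_mem c), ((tD4 τ hτ).torus_fixed hsh).2⟩

theorem exponents_ne {μ : L} (hμ : μ ≠ 0) (q : ℕ) (r : ℕ) : μ ^ expo (q : ℤ) r ≠ 0 := zpow_ne_zero _ hμ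

theorem graph_data : gD4a.rhoF 18 = 13 ∧ gD4a.rhoF 13 = 12 ∧ gD4a.rhoF 12 = 18 ∧ gD4a.rhoF 14 = 14 ∧
    act chevD4 hiWord 14 = 1 ∧ gD4a.rhoF 23 = 23 ∧ gD4a.rhoF 0 = 0 ∧ gD4a.epsF 23 = 1 ∧ gD4a.epsF 0 = 1 ∧
    18 < chevD4.nroots ∧ 14 < chevD4.nroots ∧ 13 < chevD4.nroots ∧ 12 < chevD4.nroots ∧
    1 < chevD4.nroots := by decide +kernel

theorem char_rel {q : ℕ} (hfq : ∀ x, f x = x ^ q) {δ : L} (hδ : δ ≠ 0) {c : ℕ → L}
    (hc : ∀ k < chevD4.rank, c k ≠ 0)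
    (hσ : sigL f (cL.torusElt c) = cL.nu 23 δ * cL.torusElt c * (cL.nu 23 δ)⁻¹) {r : ℕ} (hr : r < chevD4.nroots)
    {s : ℕ} (hs : s < chevD4.nroots) (hsr : act chevD4 hiWord s = gD4a.rhoF r) :
    (∏ k ∈ Finset.range chevD4.rank, cartChar chevD4 k (c k) r) ^ q =
      ∏ k ∈ Finset.range chevD4.rank, cartChar chevD4 k (c k) s := by
  have hρ : gD4a.rhoF r < chevD4.nroots := gD4a_ok.{0}.rho_lt r hr
  set χ : ℕ → L := fun v => ∏ k ∈ Finset.range chevD4.rank, cartChar chevD4 k (c k) v with hχ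
  set y := cL.torusElt c with hy
  set n := cL.nu 23 δ with hn
  have hconj : ∀ v < chevD4.nroots, ∀ z, y * cL.xu v z * y⁻¹ = cL.xu v (χ v * z) := fun v hv z =>
    torus_char cL c hc hv z
  obtain ⟨cn, hcn, en⟩ := nuActs_high cL (F := L) δ hδ s hs
  rw [hsr] at en
  have h1 := congrArg (sigL f) (hconj r hr 1)
  rw [map_mul, map_mul, map_inv, sigL_xu f hr, sigL_xu f hr, hσ, mul_one, map_one, mul_one] at h1
  set ε : L := ((gD4a.epsF r : ℤ) : L)
  have h2 : cL.xu (gD4a.rhoF r) ε = n * cL.xu s (ε / cn) * n⁻¹ := by rw [en, mul_div_cancel₀ _ hcn]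
  have h3 : n * y * n⁻¹ * (n * cL.xu s (ε / cn) * n⁻¹) * (n * y * n⁻¹)⁻¹ =
      cL.xu (gD4a.rhoF r) (cn * (χ s * (ε / cn))) := by
    rw [hn, ← en, ← hconj s hs]; group
  rw [h2, h3] at h1
  have h4 := cL.xu_eq_one hρ (t := cn * (χ s * (ε / cn)) - ε * f (χ r)) (by
    rw [sub_eq_add_neg, ← cL.xu_add, ← cL.xu_inv, h1, mul_inv_cancel])
  rw [sub_eq_zero] at h4
  have hε : ε ≠ 0 := by
    show ((sgn (gD4a.eps.getD r 0) : ℤ) : L) ≠ 0
    rcases sgn_cases (gD4a.eps.getD r 0) with h | h <;> rw [h] <;> simp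
  show χ r ^ q = χ s
  rw [← hfq]
  refine mul_left_cancel₀ hε ?_
  rw [← h4]; field_simp

theorem card_cent_le [Fintype L] {q : ℕ} (hq : 2 ≤ q) (hfq : ∀ x, f x = x ^ q) (hf : ∀ x, f (ι x) = ι (τ x))
    {μ δ : L} (hμ : IsPrimitiveRoot μ ((q ^ 3 - 1) * (q + 1))) (hδ : δ ≠ 0) {g : GL chevD4.Idx L}
    (hg : g ∈ chevD4.group L) (hgn : (sigL f g)⁻¹ * g = cL.nu 23 δ) {h0 : GL chevD4.Idx K}
    (hh : mapG ι h0 = g * tEl μ q * g⁻¹) {T : Subgroup (GL chevD4.Idx K)}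
    (hT : T ≤ chevD4.group K ⊓ (tD4 τ hτ).fixed) :
    Nat.card {y : GL chevD4.Idx K // y ∈ T ∧ h0 * y = y * h0} ≤ (q ^ 3 - 1) * (q + 1) := by
  have h1q : 1 ≤ q ^ 3 := Nat.one_le_pow _ _ (by omega)
  have h2q : 2 ≤ q ^ 3 := le_trans hq (Nat.le_self_pow (by norm_num) q)
  have hμ0 : μ ≠ 0 := hμ.ne_zero (Nat.mul_pos (by omega) (by omega)).ne'
  obtain ⟨hsep1, hsep2⟩ := torus_separated cL hq hμ
  let α := {y : GL chevD4.Idx K // y ∈ T ∧ h0 * y = y * h0}
  have hex : ∀ y : α, ∃ c : ℕ → L, (∀ k < chevD4.rank, c k ≠ 0) ∧ g⁻¹ * mapG ι y.1 * g = cL.torusElt c := by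
    intro y
    refine cL.mem_diagonal_iff.mp (mem_diagonal_of_commute_weyl cL coxD4 (tEl_mem hμ0 q)
      (fun r hr z => tEl_conj hμ0 q hr z) hsep1 hsep2 ?_ ?_)
    · exact mul_mem (mul_mem (inv_mem hg) (mapG_mem ι cK cL (hT y.2.1).1)) hg
    · have hc := congrArg (mapG ι) y.2.2
      rw [map_mul, map_mul, hh] at hc
      calc tEl μ q * (g⁻¹ * mapG ι y.1 * g) = g⁻¹ * (g * tEl μ q * g⁻¹ * mapG ι y.1) * g := by group
        _ = g⁻¹ * (mapG ι y.1 * (g * tEl μ q * g⁻¹)) * g := by rw [hc]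
        _ = _ := by group
  choose c hc he using hex
  let X : α → ℕ → L := fun y v => ∏ k ∈ Finset.range chevD4.rank, cartChar chevD4 k (c y k) v
  obtain ⟨d18, d13, d12, d14, dw, -, -, -, -, l18, l14, l13, l12, l1⟩ := graph_data
  obtain ⟨w13, w12, w18, w1⟩ := hiWord_data
  have hrel : ∀ y : α, X y 18 ^ q = X y 13 ∧ X y 13 ^ q = X y 12 ∧ X y 12 ^ q = X y 18 ∧ X y 14 ^ q = X y 1 := by
    intro y
    have hσ : sigL f (cL.torusElt (c y)) = cL.nu 23 δ * cL.torusElt (c y) * (cL.nu 23 δ)⁻¹ := by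
      rw [← he y, map_mul, map_mul, map_inv, sigL_mapG ι hτ f hf,
        show (tD4 τ hτ).sigma y.1 = y.1 from (hT y.2.1).2, ← hgn]
      group
    exact ⟨char_rel f hfq hδ (hc y) hσ l18 l13 (by rw [w13, d18]),
      char_rel f hfq hδ (hc y) hσ l13 l12 (by rw [w12, d13]),
      char_rel f hfq hδ (hc y) hσ l12 l18 (by rw [w18, d12]),
      char_rel f hfq hδ (hc y) hσ l14 l1 (by rw [w1, d14])⟩
  have hX0 : ∀ y : α, ∀ v, X y v ≠ 0 := fun y v =>
    Finset.prod_ne_zero_iff.mpr fun k hk => zpow_ne_zero _ (hc y k (Finset.mem_range.mp hk))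
  refine card_pairs (L := L) (N := q ^ 3 - 1) (M := q + 1) (by omega) (by omega) (fun a => (a ^ (1 + q + q ^ 2))⁻¹)
    (fun y : α => (X y 18, X y 14)) ?_ ?_ ?_
  · intro y z h
    simp only [Prod.mk.injEq] at h
    have e13 : X y 13 = X z 13 := by rw [← (hrel y).1, ← (hrel z).1, h.1]
    have e12 : X y 12 = X z 12 := by rw [← (hrel y).2.1, ← (hrel z).2.1, e13]
    have hsim : ∀ j : Fin 4, chevD4.simple (j : ℕ) = 18 ∨ chevD4.simple (j : ℕ) = 14 ∨
        chevD4.simple (j : ℕ) = 13 ∨ chevD4.simple (j : ℕ) = 12 := by decide +kernel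
    have e : cL.torusElt (c y) = cL.torusElt (c z) := by
      apply Units.ext
      rw [cL.coe_torusElt (hc y), cL.coe_torusElt (hc z)]
      refine dMat_congr fun v hv => ?_
      rw [cL.char_eq_prod (hc y) hv, cL.char_eq_prod (hc z) hv]
      refine Finset.prod_congr rfl fun j _ => ?_
      congr 1
      rcases hsim j with e | e | e | e <;> rw [e]
      exacts [h.1, h.2, e13, e12]
    rw [← he y, ← he z] at e
    simp only [mul_left_inj, mul_right_inj] at e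
    exact Subtype.ext (mapG_injective ι e)
  · intro y
    obtain ⟨h1, h2, h3, -⟩ := hrel y
    show X y 18 ^ (q ^ 3 - 1) = 1
    have : X y 18 ^ (q ^ 3 - 1 + 1) = X y 18 := by
      rw [Nat.sub_add_cancel h1q, show q ^ 3 = q * q * q by ring, pow_mul, pow_mul, h1, h2, h3]
    rw [pow_succ] at this
    exact (mul_eq_right₀ (hX0 y 18)).mp this
  · intro y
    obtain ⟨h1, h2, -, h4⟩ := hrel y
    show X y 14 ^ (q + 1) = (X y 18 ^ (1 + q + q ^ 2))⁻¹
    have hone : X y 1 * (X y 18 * X y 14 * X y 13 * X y 12) = 1 := char_one (c y) (hc y)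
    rw [← h4, ← h2, ← h1] at hone
    refine eq_inv_of_mul_eq_one_left ?_
    rw [← hone]; ring

set_option maxHeartbeats 1000000 in
theorem exists_singer {K : Type u} [Field K] [Fintype K] {q : ℕ} (hqp : IsPrimePow q)
    (hK : Fintype.card K = q ^ 3) :
    ∃ H : Subgroup ↥(twistedD4 K q), IsCyclic ↥H ∧ Nat.card ↥H = (q ^ 3 - 1) * (q + 1) ∧
      Subgroup.centralizer (H : Set ↥(twistedD4 K q)) = H := by
  classical
  obtain ⟨τ, hτ, hsmall, hτq, -, -⟩ := exists_tD4 hqp hK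
  have hsmall' : twistedD4 K q = chevD4.group K ⊓ (tD4 τ hτ).fixed := by
    rw [hsmall, (tD4 τ hτ).small_eq coxD4 (D4_torusOK τ hτ)]
  have hq2 : 2 ≤ q := hqp.two_le
  obtain ⟨p, hp⟩ := CharP.exists K
  have : Fact p.Prime := ⟨CharP.char_is_prime K p⟩
  let L := FiniteField.Extension K p 2
  have : Fintype L := Fintype.ofFinite L
  have hL : Fintype.card L = q ^ 6 := by
    rw [← Nat.card_eq_fintype_card, FiniteField.natCard_extension, Nat.card_eq_fintype_card, hK, ← pow_mul]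
  obtain ⟨f, hfq, -, -, -⟩ := exists_frob (o := 6) (by norm_num) hqp hL
  let ι : K →+* L := algebraMap K L
  have hf : ∀ x, f (ι x) = ι (τ x) := fun x => by rw [hfq, hτq, map_pow]
  have hfix : ∀ x : L, f (f (f x)) = x → ∃ y, ι y = x := fun x hx => by
    rw [hfq, hfq, hfq, ← pow_mul, ← pow_mul, show q * (q * q) = q ^ 3 by ring, ← hK] at hx
    have hroot : x ∈ (Polynomial.X ^ Fintype.card K - Polynomial.X : Polynomial L).roots := by
      rw [Polynomial.mem_roots (FiniteField.X_pow_card_sub_X_ne_zero L Fintype.one_lt_card)]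
      simp [hx]
    rw [← Polynomial.map_X (f := ι), ← Polynomial.map_pow, ← Polynomial.map_sub,
      ← Polynomial.roots_map_of_map_ne_zero_of_card_eq_natDegree ι
        (Polynomial.map_ne_zero (FiniteField.X_pow_card_sub_X_ne_zero K Fintype.one_lt_card))
        (by rw [FiniteField.roots_X_pow_card_sub_X, FiniteField.X_pow_card_sub_X_natDegree_eq K
          Fintype.one_lt_card, ← Finset.card_def, Finset.card_univ])] at hroot
    obtain ⟨y, -, hy⟩ := Multiset.mem_map.mp hroot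
    exact ⟨y, hy⟩
  obtain ⟨μ, u, δ, e, B, hμ, hμ0, hB, h1B, hδ1, hδ0, hfδ, he, he0, hA1, hA2, hP0, hP1, hQ2, hQ3⟩ :=
    exists_scalars hq2 hL f hfq
  obtain ⟨a1, ha1⟩ := hfix _ (show f (f (f (u - e))) = u - e by rw [hA1, hA1, hA1])
  obtain ⟨a2, ha2⟩ := hfix _ (show f (f (f (-(B * e) - u))) = _ by rw [hA2, hA2, hA2])
  obtain ⟨p0, hp0⟩ := hfix _ hP0
  obtain ⟨p1, hp1⟩ := hfix _ (show f (f (f (B * e ^ 2))) = B * e ^ 2 by rw [hP1, hP1, hP1])
  have hτa1 : τ a1 = a1 := ι.injective (by rw [← hf, ha1, hA1])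
  have hτa2 : τ a2 = a2 := ι.injective (by rw [← hf, ha2, hA2])
  have hτp1 : τ p1 = p1 := ι.injective (by rw [← hf, hp1, hP1])
  have hp00 : p0 ≠ 0 := fun h => mul_ne_zero hμ0 he0 (by rw [← hp0, h, map_zero])
  have hB0 : B ≠ 0 := hB ▸ zpow_ne_zero _ hμ0
  have hp10 : p1 ≠ 0 := fun h => mul_ne_zero hB0 (pow_ne_zero 2 he0) (by rw [← hp1, h, map_zero])
  let pc : ℕ → K := fun k => if k = 0 then p0 else if k = 1 then p1 else if k = 2 then τ p0 else τ (τ p0)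
  have hpc : ∀ k < chevD4.rank, pc k ≠ 0 := fun k _ => by
    simp only [pc]
    split_ifs
    · exact hp00
    · exact hp10
    · exact (map_ne_zero τ).mpr hp00
    · exact (map_ne_zero τ).mpr ((map_ne_zero τ).mpr hp00)
  obtain ⟨φ, hφU, hφL⟩ := cL.exists_sl2Hom (F := L) high_root.1
  let g : GL chevD4.Idx L := φ (sl2U u * sl2W⁻¹ * sl2U δ)
  let h0 : GL chevD4.Idx K := cK.xu 23 a1 * cK.torusElt pc * cK.nu 23 1 * cK.xu 23 a2
  have hcor : corootC chevD4 23 0 = 1 ∧ corootC chevD4 23 1 = 2 ∧ corootC chevD4 23 2 = 1 ∧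
      corootC chevD4 23 3 = 1 := by decide +kernel
  have hT : cL.torusElt (fun k => ι (pc k)) = cL.hu 23 e * tEl μ q := by
    refine hu_mul_tEl hμ0 he0 q (fun k hk => (map_ne_zero ι).mpr (hpc k hk)) fun k hk => ?_
    obtain ⟨c0, c1, c2, c3⟩ := hcor
    interval_cases k
    · show ι p0 = _
      rw [hp0, c0, zpow_one, show gam (q : ℤ) 0 = 1 from rfl, zpow_one, mul_comm]
    · show ι p1 = _
      rw [hp1, c1, show gam (q : ℤ) 1 = 1 - (q : ℤ) ^ 3 from rfl, ← hB, zpow_ofNat, mul_comm]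
    · show ι (τ p0) = _
      rw [← hf, hp0, hQ2, c2, zpow_one, mul_comm]
    · show ι (τ (τ p0)) = _
      rw [← hf, ← hf, hp0, hQ3, c3, zpow_one, mul_comm]
  have hh : mapG ι h0 = g * tEl μ q * g⁻¹ := by
    simp only [h0, map_mul]
    rw [mapG_xu ι cK cL, mapG_xu ι cK cL, mapG_nu ι cK cL, mapG_torus ι cK cL pc hpc, map_one, ha1, ha2, hT]
    exact conj_formula hμ0 hB h1B hδ0 he hφU hφL
  have hh0 : h0 ∈ twistedD4 K q := by
    rw [hsmall']
    have hτ3 : ∀ x, τ (τ (τ x)) = x := fun x => by simpa using hτ x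
    refine mul_mem (mul_mem (mul_mem (fixed_xu τ hτ hτa1) (fixed_torus τ hτ hpc rfl ?_ rfl ?_)) (fixed_nu τ hτ))
      (fixed_xu τ hτ hτa2)
    · exact hτp1
    · exact hτ3 p0
  have hord : orderOf (⟨h0, hh0⟩ : ↥(twistedD4 K q)) = (q ^ 3 - 1) * (q + 1) := by
    rw [Subgroup.orderOf_mk, ← orderOf_injective (mapG ι) (mapG_injective ι) h0, hh,
      show g * tEl μ q * g⁻¹ = MulAut.conj g (tEl μ q) from rfl, MulEquiv.orderOf_eq, orderOf_tEl hq2 hμ]
  refine ⟨Subgroup.zpowers ⟨h0, hh0⟩, inferInstance, by rw [Nat.card_zpowers, hord], ?_⟩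
  have hg : g ∈ chevD4.group L := by
    have : φ.range ≤ chevD4.group L := by
      rw [cL.sl2Hom_range φ hφU hφL]
      refine sup_le ?_ ?_ <;> intro x hx <;> obtain ⟨z, rfl⟩ := cL.mem_rootSubgroup.mp hx <;>
        exact cL.xu_mem_group _ _
    exact this ⟨_, rfl⟩
  obtain ⟨-, -, -, -, -, r23, r0, e23, e0, -⟩ := graph_data
  have hσU : ∀ z, sigL f (cL.xu 23 z) = cL.xu 23 (f z) := fun z => by
    rw [sigL_xu f high_root.1, r23, e23, Int.cast_one, one_mul]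
  have hσL : ∀ z, sigL f (cL.xu (chevD4.neg 23) z) = cL.xu (chevD4.neg 23) (f z) := fun z => by
    rw [high_root.2.2, sigL_xu f high_root.2.1, r0, e0, Int.cast_one, one_mul]
  have hgn : (sigL f g)⁻¹ * g = cL.nu 23 δ := by
    rw [sl2_nu cL φ hφU hφL δ, sl2_map_commute cL φ hφU hφL (sigL f) f hσU hσL, ← map_inv, ← map_mul]
    congr 1
    rw [← sl2_twist_identity u (f u) δ hδ1, map_mul, map_mul, map_inv]
    congr 2
    congr 1
    · congr 1
      · exact sl2_ext _ _ (map_one f) rfl (map_zero f) (map_one f)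
      · congr 1
        exact sl2_ext _ _ (map_zero f) (map_one f) ((map_neg f 1).trans (congrArg Neg.neg (map_one f))) (map_zero f)
    · rw [← hfδ]
      exact sl2_ext _ _ (map_one f) rfl (map_zero f) (map_one f)
  have hle := card_cent_le ι f τ hτ hq2 hfq hf hμ hδ0 hg hgn hh (T := twistedD4 K q) (le_of_eq hsmall')
  refine (Subgroup.eq_of_le_of_card_ge (Subgroup.le_centralizer _) ?_).symm
  rw [Nat.card_zpowers, hord]
  refine le_trans (Nat.card_le_card_of_injective (fun y => ⟨(y.1 : GL chevD4.Idx K), y.1.2,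
    congrArg Subtype.val (Subgroup.mem_centralizer_iff.mp y.2 _ (Subgroup.mem_zpowers _))⟩) ?_) hle
  intro y z h
  exact Subtype.ext (Subtype.ext (congrArg (fun a => a.1) h :))

end Cfsg.Agent.KnownA.D4Sing
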