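import Cfsg.Agent.KnownA.D4Sing.Arith
import Cfsg.Agent.Chev.TwistBruhat
import Mathlib.FieldTheory.Finite.Extension

/-!
# Extension of scalars for `³D₄`, and the `SL₂` computation in the long root group
-/

set_option autoImplicit false

universe u v

namespace Cfsg.Agent.KnownA.D4Sing

open Cfsg.Lie Cfsg.Agent.Chev
open scoped Matrix MatrixGroups

section sl2

variable {L : Type v} [Field L]

theorem sl2_twist_identity (u u' δ : L) (hδ : δ * (u - u') = 1) :
    (sl2U u' * (sl2W : Matrix.SpecialLinearGroup (Fin 2) L)⁻¹ * sl2U (-δ))⁻¹ * (sl2U u * sl2W⁻¹ * sl2U δ) =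
      sl2U δ * sl2L (-δ⁻¹) * sl2U δ := by
  have hδ0 : δ ≠ 0 := left_ne_zero_of_mul_eq_one hδ
  have hu : u - u' = δ⁻¹ := eq_inv_of_mul_eq_one_right hδ
  rw [inv_mul_eq_iff_eq_mul]
  apply Subtype.ext
  simp only [Matrix.SpecialLinearGroup.coe_mul, Matrix.SpecialLinearGroup.coe_inv, coe_sl2U, coe_sl2W, coe_sl2L,
    Matrix.adjugate_fin_two_of]
  ext i j
  fin_cases i <;> fin_cases j <;> simp [Matrix.mul_apply, Fin.sum_univ_two] <;> field_simp <;>
    first | ring1 | linear_combination hδ | linear_combination -hδ | linear_combination δ * hδ |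
      linear_combination (-δ) * hδ

theorem sl2_conj_identity (u D : L) (hD : D ≠ 0) :
    sl2U u * (sl2W : Matrix.SpecialLinearGroup (Fin 2) L)⁻¹ * sl2U D * sl2L (-D⁻¹) =
      sl2U (u - D⁻¹) * (sl2U D⁻¹ * sl2L (-D) * sl2U D⁻¹) * (sl2U (-1) * sl2L 1 * sl2U (-1)) := by
  apply Subtype.ext
  simp only [Matrix.SpecialLinearGroup.coe_mul, Matrix.SpecialLinearGroup.coe_inv, coe_sl2U, coe_sl2W, coe_sl2L,
    Matrix.adjugate_fin_two_of]
  ext i j
  fin_cases i <;> fin_cases j <;> simp [Matrix.mul_apply, Fin.sum_univ_two] <;> field_simp <;> ring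

theorem sl2_W_conj (s : L) :
    (sl2W : Matrix.SpecialLinearGroup (Fin 2) L) * sl2U s * sl2W⁻¹ = sl2L (-s) := by
  apply Subtype.ext
  simp only [Matrix.SpecialLinearGroup.coe_mul, Matrix.SpecialLinearGroup.coe_inv, coe_sl2U, coe_sl2W, coe_sl2L,
    Matrix.adjugate_fin_two_of]
  ext i j
  fin_cases i <;> fin_cases j <;> simp [Matrix.mul_apply, Fin.sum_univ_two]

theorem sl2W_eq : (sl2W : Matrix.SpecialLinearGroup (Fin 2) L) = sl2U 1 * sl2L (-1) * sl2U 1 := by
  apply Subtype.ext
  ext a b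
  fin_cases a <;> fin_cases b <;> simp [Matrix.SpecialLinearGroup.coe_mul, Matrix.mul_apply, Fin.sum_univ_two]

theorem nu_one_eq {D : ChevalleyDatum} (C : Cert.{v} D) {r : ℕ} (φ : Matrix.SpecialLinearGroup (Fin 2) L →* GL D.Idx L)
    (hU : ∀ t, φ (sl2U t) = C.xu r t) (hL : ∀ t, φ (sl2L t) = C.xu (D.neg r) t) :
    φ sl2W = C.nu r (1 : L) := by
  rw [sl2_nu C φ hU hL, inv_one, ← sl2W_eq]

end sl2

section ext

variable {K : Type u} [Field K] {L : Type v} [Field L] (i : K →+* L)

/-- extension of scalars -/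
noncomputable def mapG : GL chevD4.Idx K →* GL chevD4.Idx L := Matrix.GeneralLinearGroup.map i

theorem mapG_xu (C : Cert.{u} chevD4) (C' : Cert.{v} chevD4) (r : ℕ) (t : K) :
    mapG i (C.xu r t) = C'.xu r (i t) := by
  apply Units.ext
  show (chevD4.x K r t).map i = chevD4.x L r (i t)
  unfold ChevalleyDatum.x
  split
  · ext row col
    rcases col with a | s <;> rcases row with j | v <;>
      simp [ChevalleyDatum.xMat, Matrix.of_apply, apply_ite i, map_list_sum, List.map_map, Function.comp_def]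
    all_goals (split <;> simp [apply_ite i, map_list_sum, List.map_map, Function.comp_def])
  · rw [Matrix.map_one i (map_zero i) (map_one i)]

theorem mapG_mem (C : Cert.{u} chevD4) (C' : Cert.{v} chevD4) {g : GL chevD4.Idx K} (hg : g ∈ chevD4.group K) :
    mapG i g ∈ chevD4.group L := by
  rw [C.group_eq_closure] at hg
  induction hg using Subgroup.closure_induction with
  | mem x hx =>
    obtain ⟨r, -, t, rfl⟩ := hx
    rw [mapG_xu i C C']
    exact C'.xu_mem_group _ _
  | one => rw [map_one]; exact one_mem _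
  | mul x w _ _ hx hw => rw [map_mul]; exact mul_mem hx hw
  | inv x _ hx => rw [map_inv]; exact inv_mem hx

theorem mapG_nu (C : Cert.{u} chevD4) (C' : Cert.{v} chevD4) (r : ℕ) (t : K) :
    mapG i (C.nu r t) = C'.nu r (i t) := by
  rw [C.nu_eq, C'.nu_eq, map_mul, map_mul, mapG_xu i C C', mapG_xu i C C', map_neg, map_inv₀]

theorem mapG_injective : Function.Injective (mapG i) := fun a b e => by
  apply Units.ext
  ext x y
  exact i.injective (congrArg (fun g : GL chevD4.Idx L => g.val x y) e)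

theorem mapG_torus (C : Cert.{u} chevD4) (C' : Cert.{v} chevD4) (c : ℕ → K) (hc : ∀ k < chevD4.rank, c k ≠ 0) :
    mapG i (C.torusElt c) = C'.torusElt (fun k => i (c k)) := by
  apply Units.ext
  show (C.torusElt c : Matrix chevD4.Idx chevD4.Idx K).map i = _
  rw [C.coe_torusElt hc, C'.coe_torusElt (fun k hk => (map_ne_zero i).mpr (hc k hk)), dMat, dMat,
    Matrix.diagonal_map (map_zero i)]
  congr 1
  funext x
  rcases x with a | s <;> simp [cartChar]

/-- the triality symmetry followed by a field automorphism of any order -/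
noncomputable def sigL (f : L →+* L) : GL chevD4.Idx L →* GL chevD4.Idx L :=
  (MulAut.conj ((gD4a_ok.{v}).unit (F := L))).toMonoidHom.comp (Matrix.GeneralLinearGroup.map f)

theorem sigL_xu (f : L →+* L) {r : ℕ} (hr : r < chevD4.nroots) (t : L) :
    sigL f ((AllOK.cert.{v} allOKD4).xu r t) =
      (AllOK.cert.{v} allOKD4).xu (gD4a.rhoF r) (((gD4a.epsF r : ℤ) : L) * f t) := by
  show gD4a_ok.unit * mapG f ((AllOK.cert.{v} allOKD4).xu r t) * (gD4a_ok.unit)⁻¹ = _
  rw [mapG_xu f (AllOK.cert.{v} allOKD4) (AllOK.cert.{v} allOKD4)]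
  exact gD4a_ok.unit_conj_xu hr _

theorem sigL_mapG {τ : K →+* K} (h : ∀ x, (τ)^[3] x = x) (f : L →+* L) (hf : ∀ x, f (i x) = i (τ x))
    (g : GL chevD4.Idx K) : sigL f (mapG i g) = mapG i ((tD4 τ h).sigma g) := by
  show gD4a_ok.unit * mapG f (mapG i g) * (gD4a_ok.unit)⁻¹ =
    mapG i ((tD4 τ h).ok.graph.unit * mapG τ g * ((tD4 τ h).ok.graph.unit)⁻¹)
  rw [map_mul, map_mul, map_inv]
  have hu : mapG i ((tD4 τ h).ok.graph.unit : GL chevD4.Idx K) = (gD4a_ok.{v}.unit : GL chevD4.Idx L) := by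
    apply Units.ext
    show (gMat chevD4 K gD4a).map i = gMat chevD4 L gD4a
    ext a b
    rcases a with a | a <;> rcases b with b | b <;> simp [gMat, apply_ite i]
  have hm : mapG i (mapG τ g) = mapG f (mapG i g) := by
    apply Units.ext
    ext a b
    exact (hf _).symm
  rw [hu, hm]

end ext

end Cfsg.Agent.KnownA.D4Sing
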