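import Cfsg.Agent.Chev.Bruhat
import Cfsg.Agent.Chev.SL2

/-!
# Centralizers of semisimple elements whose characters determine the Weyl element; conjugation by `n_r(t)`
-/

set_option autoImplicit false

universe u

namespace Cfsg.Agent.KnownA.D4Sing

open Cfsg.Lie Cfsg.Agent.Chev
open scoped Matrix MatrixGroups

variable {D : ChevalleyDatum} {F : Type u} [Field F]

/-- An element of `G` commuting with a diagonal element of separating character is diagonal. -/
theorem mem_diagonal_of_commute_weyl (C : Cert.{u} D) {M : CoxeterMatrix (Fin D.rank)} (hM : CoxOK D M)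
    {t y : GL D.Idx F} (ht : t ∈ D.diagonalSubgroup F) {χ : ℕ → F}
    (hconj : ∀ r < D.nroots, ∀ s, t * C.xu r s * t⁻¹ = C.xu r (χ r * s))
    (hne : ∀ r < D.nroots, χ r ≠ 1)
    (hw : ∀ L : List ℕ, (∀ i ∈ L, i < D.rank) → (∀ r < D.nroots, χ (act D L r) = χ r) →
      ∀ r < D.nroots, act D L r = r)
    (hy : y ∈ D.group F) (hc : t * y = y * t) : y ∈ D.diagonalSubgroup F := by
  have hxu : ∀ r < D.nroots, ∀ a b : F, C.xu r a = C.xu r b → a = b := fun r hr a b e => by
    have h : C.xu r (a - b) = 1 := by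
      rw [sub_eq_add_neg, ← C.xu_add, ← C.xu_inv, e, mul_inv_cancel]
    exact sub_eq_zero.mp (C.xu_eq_one hr h)
  have hfixU : ∀ u ∈ D.posUnipotent F, t * u * t⁻¹ = u → u = 1 := by
    intro u hu he
    obtain ⟨f, -, rfl⟩ := C.exists_prodU C.closedSet_pos (g := u) hu
    have hwu : ∀ L : List (ℕ × F), (∀ p ∈ L, p.1 < D.nroots) →
        t * C.wu L * t⁻¹ = C.wu (L.map fun p => (p.1, χ p.1 * p.2)) := by
      intro L hL
      induction L with
      | nil => simp [Cert.wu]
      | cons p L ih =>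
        rw [List.map_cons, C.wu_cons, C.wu_cons, ← hconj p.1 (hL p List.mem_cons_self),
          ← ih fun q hq => hL q (List.mem_cons_of_mem _ hq)]
        group
    have e1 : C.prodU (fun r => χ r * f r) = C.prodU f := by
      refine Eq.trans ?_ he
      rw [Cert.prodU, Cert.prodU, hwu]
      · rw [List.map_map]; rfl
      · intro p hp
        obtain ⟨r, hr, rfl⟩ := List.mem_map.mp hp
        exact (Cert.mem_posRoots.mp hr).1
    have e2 : C.prodU f = C.prodU (fun _ => (0 : F)) := by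
      have hz : ∀ r, D.IsPosRoot r → f r = 0 := fun r hr => by
        have h := C.prodU_inj e1 r hr
        have : (χ r - 1) * f r = 0 := by rw [sub_mul, one_mul, h, sub_self]
        exact (mul_eq_zero.mp this).resolve_left (sub_ne_zero.mpr (hne r hr.1))
      rw [Cert.prodU, Cert.prodU]
      congr 1
      exact List.map_congr_left fun r hr => by rw [hz r (Cert.mem_posRoots.mp hr)]
    rw [e2, C.prodU_zero]
  obtain ⟨n, hn, b₀, hb₀, b₁, hb₁, e⟩ := C.exists_bruhat hM hy
  obtain ⟨b, hb, u, hu, rfl⟩ := C.exists_canonical hM hn (g := y) ⟨b₀, hb₀, b₁, hb₁, e⟩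
  obtain ⟨a, ha, d, hd, rfl⟩ := C.mem_borel.mp hb
  set h := t * (n * t⁻¹ * n⁻¹) with hh
  have hhD : h ∈ D.diagonalSubgroup F := mul_mem ht (C.monomial_conj_diagonal hn (inv_mem ht))
  have hta : t * a * t⁻¹ ∈ D.posUnipotent F :=
    (Subgroup.mem_normalizer_iff.mp (C.posUnipotent_normalised ht) a).mp ha
  have hb' : t * a * t⁻¹ * (d * h) ∈ D.borelSubgroup F :=
    mul_mem (C.pos_le_borel hta) (C.diagonal_le_borel (mul_mem hd hhD))
  have hu' : t * u * t⁻¹ ∈ spanGroup D F (Inverts D F n) := by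
    have : spanGroup D F (Inverts D F n) ≤
        (spanGroup D F (Inverts D F n)).comap (MulAut.conj t).toMonoidHom := by
      refine C.span_le fun r hr x => ?_
      rw [Subgroup.mem_comap, MulEquiv.coe_toMonoidHom, MulAut.conj_apply]
      rw [hconj r hr.1.1]
      exact C.xu_mem_span hr _
    exact this hu
  have heq : a * d * n * u = t * a * t⁻¹ * (d * h) * n * (t * u * t⁻¹) := by
    calc a * d * n * u = t * (a * d * n * u) * t⁻¹ := by rw [hc, mul_inv_cancel_right]
      _ = t * a * t⁻¹ * (t * d) * n * (u * t⁻¹) := by group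
      _ = _ := by rw [C.diagonal_comm ht hd, hh]; group
  obtain ⟨eb, eu⟩ := C.canonical_unique (mul_mem (C.pos_le_borel ha) (C.diagonal_le_borel hd)) hb' hu hu' heq
  have hu1 : u = 1 := hfixU u (C.span_mono (fun r hr => hr.1) hu) eu.symm
  have hbot : (t * a * t⁻¹)⁻¹ * a = d * h * d⁻¹ := by
    calc (t * a * t⁻¹)⁻¹ * a = (t * a * t⁻¹)⁻¹ * (a * d) * d⁻¹ := by group
      _ = _ := by rw [eb]; group
  have hone : (t * a * t⁻¹)⁻¹ * a = 1 := by
    rw [← Subgroup.mem_bot, ← C.posUnipotent_inf_diagonal (F := F)]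
    exact Subgroup.mem_inf.mpr ⟨mul_mem (inv_mem hta) ha, hbot ▸ mul_mem (mul_mem hd hhD) (inv_mem hd)⟩
  have ha1 : a = 1 := hfixU a ha (inv_mul_eq_one.mp hone)
  have hh1 : h = 1 := by
    have : d * h * d⁻¹ = 1 := by rw [← hbot, hone]
    exact mul_left_cancel (a := d) (mul_right_cancel (b := d⁻¹) (by rw [this]; group))
  have htn : t * n = n * t := by
    have : t * (n * t⁻¹ * n⁻¹) = 1 := hh1
    calc t * n = (t * (n * t⁻¹ * n⁻¹)) * (n * t) := by group
      _ = n * t := by rw [this, one_mul]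
  obtain ⟨L, ⟨k, hk, rfl⟩, hmap⟩ := C.monomial_conj_xu hM hn
  have hfix : ∀ r < D.nroots, act D (L.map Fin.val) r = r := by
    refine hw _ (C.fin_word_lt L) fun r hr => ?_
    obtain ⟨c, hc0, ec⟩ := hmap r hr
    have hlt : act D (L.map Fin.val) r < D.nroots := C.act_lt (C.fin_word_lt L) hr
    generalize hn' : C.nWordElt F (L.map Fin.val) * k = n at ec htn
    have e1 : t * (n * C.xu r 1 * n⁻¹) * t⁻¹ = n * (t * C.xu r 1 * t⁻¹) * n⁻¹ := by
      calc t * (n * C.xu r 1 * n⁻¹) * t⁻¹ = (t * n) * C.xu r 1 * (t * n)⁻¹ := by group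
        _ = (n * t) * C.xu r 1 * (n * t)⁻¹ := by rw [htn]
        _ = _ := by group
    rw [hconj r hr, ec, ec, hconj _ hlt] at e1
    have e2 := hxu _ hlt _ _ e1
    exact mul_right_cancel₀ hc0 (by linear_combination e2)
  rw [ha1, hu1, one_mul, mul_one]
  exact mul_mem hd (mul_mem (C.nWordElt_mem_diagonal hM hfix) hk)

/-- `n_r(t)` permutes the root subgroups through the word `L`, for every `t ≠ 0`. -/
def NuActs (C : Cert.{u} D) (F : Type u) [Field F] (r : ℕ) (L : List ℕ) : Prop :=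
  ∀ t : F, t ≠ 0 → ∀ s < D.nroots, ∃ c : F, c ≠ 0 ∧
    ∀ z, C.nu r t * C.xu s z * (C.nu r t)⁻¹ = C.xu (act D L s) (c * z)

theorem nuActs_simple (C : Cert.{u} D) {i : ℕ} (hi : i < D.rank) : NuActs C F (D.simple i) [i] := by
  intro t ht s hs
  have hp := C.simple_lt i hi
  have hlt := C.act_lt (L := [i]) (by simpa using hi) hs
  refine ⟨pairChar D (D.simple i) t (D.reflectRoot i s) * ((C.eta i s : ℤ) : F), mul_ne_zero (zpow_ne_zero _ ht) ?_, fun z => ?_⟩
  · intro h
    have := C.eta_cast_sq (F := F) hi hs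
    rw [h, zero_mul] at this
    exact zero_ne_one this
  · rw [mul_inv_eq_iff_eq_mul, C.nu_simple_eq hi, mul_assoc, C.nu_conj hi hs, ← mul_assoc,
      C.hu_conj_xu hp (by simpa [act_cons, act_nil] using hlt) ht, act_cons, act_nil]
    simp only [mul_assoc]

theorem nuActs_refl (C : Cert.{u} D) {i r : ℕ} {L : List ℕ} (hi : i < D.rank) (hr : r < D.nroots)
    (hL : ∀ a ∈ L, a < D.rank) (h : NuActs C F r L) : NuActs C F (D.reflectRoot i r) (i :: (L ++ [i])) := by
  intro t ht s hs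
  have he := C.eta_cast_sq (F := F) hi hr
  set η : F := ((C.eta i r : ℤ) : F)
  have hη : η ≠ 0 := fun h0 => by rw [h0, zero_mul] at he; exact zero_ne_one he
  obtain ⟨c₁, hc₁, e₁⟩ := C.conj_inv_xu_simple (F := F) hi hs
  have hrs : D.reflectRoot i s < D.nroots := C.act_lt (L := [i]) (by simpa using hi) hs
  obtain ⟨c₂, hc₂, e₂⟩ := h (η * t) (mul_ne_zero hη ht) _ hrs
  obtain ⟨c₃, hc₃, e₃⟩ := C.conj_xu_simple (F := F) hi (C.act_lt hL hrs)
  refine ⟨c₃ * (c₂ * c₁), mul_ne_zero hc₃ (mul_ne_zero hc₂ hc₁), fun z => ?_⟩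
  have e0 : C.nu (D.reflectRoot i r) t =
      C.nu (D.simple i) 1 * C.nu r (η * t) * (C.nu (D.simple i) 1)⁻¹ := by
    rw [C.nu_simple_conj_nu hi hr, ← mul_assoc, he, one_mul]
  rw [e0, act_cons, act_append]
  show _ = C.xu (D.reflectRoot i (act D L (D.reflectRoot i s))) _
  rw [mul_assoc c₃, ← e₃, mul_assoc c₂, ← e₂, ← e₁]
  group

/-- Conjugation by the graph and field automorphism sends the `SL₂` of a fixed root to itself. -/
theorem sl2_map_commute (C : Cert.{u} D) {r : ℕ} (φ : Matrix.SpecialLinearGroup (Fin 2) F →* GL D.Idx F)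
    (hU : ∀ t, φ (sl2U t) = C.xu r t) (hL : ∀ t, φ (sl2L t) = C.xu (D.neg r) t) (σ : GL D.Idx F →* GL D.Idx F)
    (f : F →+* F) (h1 : ∀ t, σ (C.xu r t) = C.xu r (f t))
    (h2 : ∀ t, σ (C.xu (D.neg r) t) = C.xu (D.neg r) (f t)) (g : Matrix.SpecialLinearGroup (Fin 2) F) :
    σ (φ g) = φ (Matrix.SpecialLinearGroup.map f g) := by
  refine sl2_induction (fun g => σ (φ g) = φ (Matrix.SpecialLinearGroup.map f g)) ?_ ?_ ?_ g
  · intro t
    rw [hU, h1, show Matrix.SpecialLinearGroup.map f (sl2U t) = sl2U (f t) from ?_, hU]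
    exact sl2_ext _ _ (map_one f) rfl (map_zero f) (map_one f)
  · have e : (sl2W : Matrix.SpecialLinearGroup (Fin 2) F) = sl2U 1 * sl2L (-1) * sl2U 1 := by
      ext a b
      fin_cases a <;> fin_cases b <;> simp [Matrix.SpecialLinearGroup.coe_mul, Matrix.mul_apply, Fin.sum_univ_two]
    have hW : Matrix.SpecialLinearGroup.map f (sl2W : Matrix.SpecialLinearGroup (Fin 2) F) = sl2W := by
      refine sl2_ext _ _ (map_zero f) (map_one f) ?_ (map_zero f)
      exact (map_neg f 1).trans (congrArg Neg.neg (map_one f))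
    rw [hW, e]
    simp only [map_mul, hU, hL, h1, h2, map_neg, map_one]
  · intro a b ha hb; rw [map_mul, map_mul, ha, hb, ← map_mul, ← map_mul]

/-- `n_r(t)` inside `SL₂`. -/
theorem sl2_nu (C : Cert.{u} D) {r : ℕ} (φ : Matrix.SpecialLinearGroup (Fin 2) F →* GL D.Idx F)
    (hU : ∀ t, φ (sl2U t) = C.xu r t) (hL : ∀ t, φ (sl2L t) = C.xu (D.neg r) t) (t : F) :
    C.nu r t = φ (sl2U t * sl2L (-t⁻¹) * sl2U t) := by
  rw [map_mul, map_mul, hU, hL, C.nu_eq]

end Cfsg.Agent.KnownA.D4Sing
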